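import Cfsg.Agent.Lib.LieId.Lin3
import Cfsg.Agent.Lib.Forms.SU3
import Cfsg.Agent.Lib.Forms.Spinor
import Cfsg.Agent.Lib.GLn.Spec2

/-! Elements and orders of the small classical groups. -/

set_option autoImplicit false

namespace Cfsg.Agent.Lin

open Cfsg.Agent.CG Cfsg.Agent.Id Cfsg.Agent.Forms Matrix Finset

variable {K : Type} [Field K] [Fintype K] {ι : Type} [Fintype ι] [DecidableEq ι] {C : CF K} {I : Co ι}

/-- The matrices of `SL`. -/
def slHom (ι : Type) [Fintype ι] [DecidableEq ι] (K : Type) [Field K] : SpecialLinearGroup ι K →* Matrix ι ι K :=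
  ⟨⟨Subtype.val, rfl⟩, fun _ _ => rfl⟩

theorem exists_sl {l : List ℕ} (h : Ent C I (matOf C I l) l) (m : ℕ) (hm : chkPow (C.ad I.d) I.d (m + 1) l = true)
    (hc : (m + 1).Coprime (Fintype.card K - 1)) : ∃ x, CM C I (slHom ι K x) l :=
  ⟨⟨_, det_eq_one (h.cm.pow_eq_one hm) hc⟩, h.cm⟩

theorem exists_su {d q : ℕ} (hK : Fintype.card K = q ^ 2) {l : List ℕ}
    (h : Ent C (coF d) (matOf C (coF d) l) l) (m : ℕ) (hm : chkPow (C.ad d) d (m + 1) l = true)
    (hc : (m + 1).Coprime (Fintype.card K - 1))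
    (hu : (matOf C (coF d) l)ᵀ * (matOf C (coF d) l).map (· ^ q) = 1) :
    ∃ x, CM C (coF d) (((slHom (Fin d) K).comp (SU d K q).subtype) x) l :=
  ⟨⟨⟨_, det_eq_one (h.cm.pow_eq_one hm) hc⟩, herm_of_cols (frobq hK) (fun _ => rfl) hu⟩, h.cm⟩

theorem card_su {d q : ℕ} (hK : Fintype.card K = q ^ 2) :
    (Nat.card (SU (d + 1) K q) * (q + 1) : ℤ) =
      ∏ i ∈ range (d + 1), (q : ℤ) ^ i * (q ^ (i + 1) - (-1) ^ (i + 1)) := by
  rw [← (uForm_nondeg (d + 1) hK).card_gu (by simp), ← (uForm_nondeg (d + 1) hK).card_SIsom,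
    Nat.card_congr (suEquiv (d + 1) hK).toEquiv]
  simp

theorem orderOf_scal {X : Type*} [Group X] {ρ : X →* Matrix ι ι K} (hρ : Function.Injective ρ) [Nonempty ι] {z : X}
    {c : K} (h : ρ z = c • 1) : orderOf z = orderOf c := by
  rw [← orderOf_injective ρ hρ, h, ← orderOf_injective (scalar ι : K →+* Matrix ι ι K).toMonoidHom
    (fun _ _ => scalar_inj.1) c]
  congr 1
  ext; simp [one_apply, diagonal_apply]

theorem exists_su_scal {d q : ℕ} (hK : Fintype.card K = q ^ 2) {c : K} (h1 : c ^ d = 1) (h2 : c * c ^ q = 1) :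
    ∃ z, ((slHom (Fin d) K).comp (SU d K q).subtype) z = c • 1 :=
  ⟨⟨⟨c • 1, by simp [h1]⟩, herm_of_cols (A := c • 1) (frobq hK) (fun _ => rfl) (by
    rw [Matrix.map_smul' _ _ _ (map_mul _), Matrix.map_one _ (map_zero _) (map_one _), transpose_smul, transpose_one,
      smul_mul_smul_comm, one_mul, frobq_apply, h2, one_smul])⟩, rfl⟩

/-- The matrices of `Ω`. -/
def omHom (Q : (ι → K) → K) : Omega K Q →* Matrix ι ι K :=
  ((Units.coeHom (Matrix ι ι K)).comp (isometryGroup K Q).subtype).comp (Omega K Q).subtype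

omit [Fintype K] in
theorem omHom_inj (Q : (ι → K) → K) : Function.Injective (omHom Q) :=
  (Units.val_injective.comp Subtype.val_injective).comp Subtype.val_injective

omit [Fintype K] in
theorem exists_om {f : Form (Param.orth K) (ι → K)} (hf : f.Nondeg) (h5 : 5 ≤ Fintype.card ι) {T : Type}
    {mk : T → ι → K} (hs : Function.Surjective mk) {l : List ℕ} (h : Ent C I (matOf C I l) l) (m : ℕ)
    (hm : chkPow (C.ad I.d) I.d (m + 1) l = true) (ho : Odd (m + 1))
    (hq : ∀ t, f.Q (matOf C I l *ᵥ mk t) = f.Q (mk t)) : ∃ x, CM C I (omHom f.Q x) l := by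
  let g : isometryGroup K f.Q := ⟨Units.ofPowEqOne _ _ (h.cm.pow_eq_one hm) m.succ_ne_zero,
    fun u _ => by obtain ⟨t, rfl⟩ := hs u; exact hq t⟩
  have hg : g ^ (m + 1) = 1 := Subtype.ext (Units.pow_ofPowEqOne (h.cm.pow_eq_one hm) m.succ_ne_zero)
  exact ⟨⟨g, (mem_commutator_equiv (orthEquiv f) g).1 (hf.mem_commutator_of_odd (Or.inr (by simpa using h5)) ho
    (by rw [← map_pow, hg, map_one]))⟩, h.cm⟩

theorem card_om_two {f : Form (Param.orth K) (ι → K)} (hf : f.Nondeg) (h5 : 5 ≤ Fintype.card ι) {a : ι → K}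
    (ha : f.Q a ≠ 0) : 2 * Nat.card (Omega K f.Q) ≤ Nat.card (isometryGroup K f.Q) := by
  have hq : (∃ c : K, c ≠ 0 ∧ c ≠ 1) ∨ 5 ≤ Module.finrank K (ι → K) := Or.inr (by simpa using h5)
  rw [← Subgroup.card_top (G := isometryGroup K f.Q)]
  refine two_mul_card_le le_top (Subgroup.mem_top ((orthEquiv f).symm (f.refl a ha))) fun h => ?_
  rw [← mem_commutator_equiv (orthEquiv f), MulEquiv.apply_symm_apply] at h
  have : hf.dickson hq _ = 1 := Abelianization.commutator_subset_ker _ h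
  rw [hf.dickson_refl] at this
  exact absurd this (by decide)

theorem card_om_four {f : Form (Param.orth K) (ι → K)} (hf : f.Nondeg) (h2 : (2 : K) ≠ 0) {a b : ι → K}
    (ha : f.Q a = 1) (hb : ¬ IsSquare (f.Q b)) : 4 * Nat.card (Omega K f.Q) ≤ Nat.card (isometryGroup K f.Q) := by
  have ha' : f.Q a ≠ 0 := ha ▸ one_ne_zero
  have hb' : f.Q b ≠ 0 := fun h => hb (h ▸ IsSquare.zero)
  have : Finite f.Isom := Finite.of_equiv _ (orthEquiv f).toEquiv
  have h1 := two_mul_card_le (H := f.detHom.ker) le_top (Subgroup.mem_top (f.refl a ha')) fun h => by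
    rw [MonoidHom.mem_ker, Form.detHom_refl] at h
    exact h2 (by have := congrArg Units.val h; simp only [Units.val_neg, Units.val_one] at this; linear_combination -this)
  have h3 := two_mul_card_le (H := commutator f.Isom) (Abelianization.commutator_subset_ker f.detHom)
    (x := f.refl a ha' * f.refl b hb') (by simp [Form.detHom_refl]) fun h => by
      have := ((hf.mem_commutator_iff h2 _).1 h).2
      rw [map_mul, hf.spin_refl, hf.spin_refl, ha, map_one, one_mul, chi_eq_one_iff hb'] at this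
      exact hb this
  rw [Subgroup.card_top, ← Nat.card_congr (orthEquiv f).toEquiv] at h1
  rw [← Nat.card_congr (commutatorEquiv (orthEquiv f)).toEquiv] at h3
  exact (show 4 * _ ≤ 2 * _ by unfold Omega; omega).trans h1

/-- Vectors of the odd orthogonal space of dimension 7. -/
def mk7 (t : K × K × K × K × K × K × K) : Unit ⊕ (Fin 3 ⊕ Fin 3) → K :=
  Sum.elim (fun _ => t.1) (Sum.elim ![t.2.1, t.2.2.1, t.2.2.2.1] ![t.2.2.2.2.1, t.2.2.2.2.2.1, t.2.2.2.2.2.2])

/-- Vectors of the orthogonal space of dimension 8. -/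
def mk8 (t : K × K × K × K × K × K × K × K) : Fin 4 ⊕ Fin 4 → K :=
  Sum.elim ![t.1, t.2.1, t.2.2.1, t.2.2.2.1] ![t.2.2.2.2.1, t.2.2.2.2.2.1, t.2.2.2.2.2.2.1, t.2.2.2.2.2.2.2]

omit [Field K] [Fintype K] in
theorem mk7_surj : Function.Surjective (mk7 (K := K)) := fun v =>
  ⟨(v (.inl ()), v (.inr (.inl 0)), v (.inr (.inl 1)), v (.inr (.inl 2)), v (.inr (.inr 0)), v (.inr (.inr 1)),
    v (.inr (.inr 2))), by ext (i | i | i) <;> fin_cases i <;> rfl⟩

omit [Field K] [Fintype K] in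
theorem mk8_surj : Function.Surjective (mk8 (K := K)) := fun v =>
  ⟨(v (.inl 0), v (.inl 1), v (.inl 2), v (.inl 3), v (.inr 0), v (.inr 1), v (.inr 2), v (.inr 3)),
    by ext (i | i) <;> fin_cases i <;> rfl⟩

end Cfsg.Agent.Lin
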