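import Cfsg.Agent.Lib.LieId.F42D

set_option autoImplicit false
set_option maxRecDepth 100000
set_option Elab.async false

namespace Cfsg.Agent.LieId.F42

open Cfsg.Agent.CG Cfsg.Agent.CG.F42 Cfsg.Agent.Lin Cfsg.Agent.Id Cfsg.Agent.Forms Cfsg.Lie Matrix

theorem ha_0 : chkReal (Lin.c2.ad (coD chevF4).d) [] 24 app vt 0 la 0 6410 = true := by decide +kernel

theorem ha_1 : chkReal (Lin.c2.ad (coD chevF4).d) [] 24 app vt 0 la 6410 6410 = true := by decide +kernel

theorem ha_2 : chkReal (Lin.c2.ad (coD chevF4).d) [] 24 app vt 0 la 12820 6410 = true := by decide +kernel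

theorem ha_3 : chkReal (Lin.c2.ad (coD chevF4).d) [] 24 app vt 0 la 19230 6410 = true := by decide +kernel

theorem ha_4 : chkReal (Lin.c2.ad (coD chevF4).d) [] 24 app vt 0 la 25640 6410 = true := by decide +kernel

theorem ha_5 : chkReal (Lin.c2.ad (coD chevF4).d) [] 24 app vt 0 la 32050 6410 = true := by decide +kernel

theorem ha_6 : chkReal (Lin.c2.ad (coD chevF4).d) [] 24 app vt 0 la 38460 6410 = true := by decide +kernel

theorem ha_7 : chkReal (Lin.c2.ad (coD chevF4).d) [] 24 app vt 0 la 44870 6410 = true := by decide +kernel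

theorem ha_8 : chkReal (Lin.c2.ad (coD chevF4).d) [] 24 app vt 0 la 51280 6410 = true := by decide +kernel

theorem ha_9 : chkReal (Lin.c2.ad (coD chevF4).d) [] 24 app vt 0 la 57690 6410 = true := by decide +kernel

theorem ha_10 : chkReal (Lin.c2.ad (coD chevF4).d) [] 24 app vt 0 la 64100 5515 = true := by decide +kernel

theorem ha : chkReal (Lin.c2.ad (coD chevF4).d) [] 24 app vt 0 la 0 69615 = true :=
  (rapp (chkReal (Lin.c2.ad (coD chevF4).d) [] 24 app vt 0 la) (fun _ _ _ => allRange_append) 69615 (rapp (chkReal (Lin.c2.ad (coD chevF4).d) [] 24 app vt 0 la) (fun _ _ _ => allRange_append) 64100 (rapp (chkReal (Lin.c2.ad (coD chevF4).d) [] 24 app vt 0 la) (fun _ _ _ => allRange_append) 57690 (rapp (chkReal (Lin.c2.ad (coD chevF4).d) [] 24 app vt 0 la) (fun _ _ _ => allRange_append) 51280 (rapp (chkReal (Lin.c2.ad (coD chevF4).d) [] 24 app vt 0 la) (fun _ _ _ => allRange_append) 44870 (rapp (chkReal (Lin.c2.ad (coD chevF4).d) [] 24 app vt 0 la)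 (fun _ _ _ => allRange_append) 38460 (rapp (chkReal (Lin.c2.ad (coD chevF4).d) [] 24 app vt 0 la) (fun _ _ _ => allRange_append) 32050 (rapp (chkReal (Lin.c2.ad (coD chevF4).d) [] 24 app vt 0 la) (fun _ _ _ => allRange_append) 25640 (rapp (chkReal (Lin.c2.ad (coD chevF4).d) [] 24 app vt 0 la) (fun _ _ _ => allRange_append) 19230 (rapp (chkReal (Lin.c2.ad (coD chevF4).d) [] 24 app vt 0 la) (fun _ _ _ => allRange_append) 12820 ha_0 ha_1 rfl rfl) ha_2 rfl rfl) ha_3 rfl rfl) ha_4 rfl rfl) ha_5 rfl rfl) ha_6 rfl rfl) ha_7 rfl rfl) ha_8 rfl rfl) ha_9 rfl rfl) ha_10 rfl rfl)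

end Cfsg.Agent.LieId.F42
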