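import Cfsg.Agent.Lib.LieId.F42D

set_option autoImplicit false
set_option maxRecDepth 100000
set_option Elab.async false

namespace Cfsg.Agent.LieId.F42

open Cfsg.Agent.CG Cfsg.Agent.CG.F42 Cfsg.Agent.Lin Cfsg.Agent.Id Cfsg.Agent.Forms Cfsg.Lie Matrix

theorem hb_0 : chkReal (Lin.c2.ad (coD chevF4).d) [] 24 app vt 1 lb 0 6410 = true := by decide +kernel

theorem hb_1 : chkReal (Lin.c2.ad (coD chevF4).d) [] 24 app vt 1 lb 6410 6410 = true := by decide +kernel

theorem hb_2 : chkReal (Lin.c2.ad (coD chevF4).d) [] 24 app vt 1 lb 12820 6410 = true := by decide +kernel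

theorem hb_3 : chkReal (Lin.c2.ad (coD chevF4).d) [] 24 app vt 1 lb 19230 6410 = true := by decide +kernel

theorem hb_4 : chkReal (Lin.c2.ad (coD chevF4).d) [] 24 app vt 1 lb 25640 6410 = true := by decide +kernel

theorem hb_5 : chkReal (Lin.c2.ad (coD chevF4).d) [] 24 app vt 1 lb 32050 6410 = true := by decide +kernel

theorem hb_6 : chkReal (Lin.c2.ad (coD chevF4).d) [] 24 app vt 1 lb 38460 6410 = true := by decide +kernel

theorem hb_7 : chkReal (Lin.c2.ad (coD chevF4).d) [] 24 app vt 1 lb 44870 6410 = true := by decide +kernel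

theorem hb_8 : chkReal (Lin.c2.ad (coD chevF4).d) [] 24 app vt 1 lb 51280 6410 = true := by decide +kernel

theorem hb_9 : chkReal (Lin.c2.ad (coD chevF4).d) [] 24 app vt 1 lb 57690 6410 = true := by decide +kernel

theorem hb_10 : chkReal (Lin.c2.ad (coD chevF4).d) [] 24 app vt 1 lb 64100 5515 = true := by decide +kernel

theorem hb : chkReal (Lin.c2.ad (coD chevF4).d) [] 24 app vt 1 lb 0 69615 = true :=
  (rapp (chkReal (Lin.c2.ad (coD chevF4).d) [] 24 app vt 1 lb) (fun _ _ _ => allRange_append) 69615 (rapp (chkReal (Lin.c2.ad (coD chevF4).d) [] 24 app vt 1 lb) (fun _ _ _ => allRange_append) 64100 (rapp (chkReal (Lin.c2.ad (coD chevF4).d) [] 24 app vt 1 lb) (fun _ _ _ => allRange_append) 57690 (rapp (chkReal (Lin.c2.ad (coD chevF4).d) [] 24 app vt 1 lb) (fun _ _ _ => allRange_append) 51280 (rapp (chkReal (Lin.c2.ad (coD chevF4).d) [] 24 app vt 1 lb) (fun _ _ _ => allRange_append) 44870 (rapp (chkReal (Lin.c2.ad (coD chevF4).d) [] 24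 app vt 1 lb) (fun _ _ _ => allRange_append) 38460 (rapp (chkReal (Lin.c2.ad (coD chevF4).d) [] 24 app vt 1 lb) (fun _ _ _ => allRange_append) 32050 (rapp (chkReal (Lin.c2.ad (coD chevF4).d) [] 24 app vt 1 lb) (fun _ _ _ => allRange_append) 25640 (rapp (chkReal (Lin.c2.ad (coD chevF4).d) [] 24 app vt 1 lb) (fun _ _ _ => allRange_append) 19230 (rapp (chkReal (Lin.c2.ad (coD chevF4).d) [] 24 app vt 1 lb) (fun _ _ _ => allRange_append) 12820 hb_0 hb_1 rfl rfl) hb_2 rfl rfl) hb_3 rfl rfl) hb_4 rfl rfl) hb_5 rfl rfl) hb_6 rfl rfl) hb_7 rfl rfl) hb_8 rfl rfl) hb_9 rfl rfl) hb_10 rfl rfl)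

end Cfsg.Agent.LieId.F42
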