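import Cfsg.Agent.Lib.LieId.Class
import Cfsg.Agent.Lib.Grp.L34.Main

set_option autoImplicit false
set_option maxRecDepth 100000
set_option Elab.async false

namespace Cfsg.Agent.LieId.L34

open Cfsg.Agent.CG Cfsg.Agent.CG.L34 Cfsg.Agent.Lin Cfsg.Agent.Id Cfsg.Agent.Forms Cfsg.Lie Matrix

noncomputable def vtT : ℕ := nat_lit 0x1f1e1d1c171615140f0e0d0c0b0a07060504030201
noncomputable def vt (x : ℕ) : ℕ := Nat.land (Nat.shiftRight vtT (Nat.mul x 1)) 63
def la : List ℕ := [45,46,37,5,29,12]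
def lb : List ℕ := [10,54,17,25,6,26]
def S : List (List ℕ) := [[1,2,4,8,16,32],
  [8,16,32,9,18,36],
  [9,18,36,1,2,4]]

theorem hi : chkInj Lin.c4 (coF 3) S 21 8 vt 0 21 = true := by decide +kernel

theorem ha : chkReal (Lin.c4.ad (coF 3).d) S 8 app vt 0 la 0 21 = true := by decide +kernel

theorem hb : chkReal (Lin.c4.ad (coF 3).d) S 8 app vt 1 lb 0 21 = true := by decide +kernel

theorem hall : allLt (fun c => bor (memL c [0, 1]) (memL (inv c) [0, 1])) 3 = true := by decide +kernel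

theorem cen : Subgroup.center PG = ⊥ :=
  center_eq_bot tabOK chain rfl (St := [15]) (b := 1) (by decide) (by decide +kernel)

theorem hS : ∀ s ∈ S, ∃ c : F4, c ≠ 0 ∧ Ent Lin.c4 (coF 3) (c • 1) s := by decide +kernel

theorem hS' : ∀ c : F4, c ≠ 0 → ∃ s ∈ S, Ent Lin.c4 (coF 3) (c • 1) s := by decide +kernel

theorem isoK : Nonempty (ProjectiveSpecialLinearGroup (Fin 3) F4 ≃* PG) := by
  obtain ⟨x, hx⟩ := exists_sl (C := Lin.c4) (I := coF 3) (l := la) (by decide +kernel) 1 (by decide +kernel) (by decide)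
  obtain ⟨y, hy⟩ := exists_sl (C := Lin.c4) (I := coF 3) (l := lb) (by decide +kernel) 6 (by decide +kernel) (by decide)
  have hz : slHom (Fin 3) F4 ⟨(⟨0, 1⟩ : F4) • 1, (by decide +kernel)⟩ = (⟨0, 1⟩ : F4) • 1 := rfl
  have hN := GLn.card_SL_eq (F := F4) 2
  rw [Nat.card_eq_fintype_card (α := F4), card_F4] at hN
  exact iso_lines (slHom _ _) Subtype.val_injective tabOK hinv hS hS' hi x y hx hy ha hb hall _ hz (by
    rw [hN, card, orderOf_scal (ρ := slHom _ _) Subtype.val_injective hz, orderOf_eq_prime (p := 3) (by decide) (by decide)]; decide) cen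

theorem iso {F : Type*} [Field F] [Fintype F] (hF : Fintype.card F = 4) :
    Nonempty (PG ≃* ProjectiveSpecialLinearGroup (Fin 3) F) :=
  isoK.map fun e => e.symm.trans (centerQuotEquiv (slEquiv (FiniteField.ringEquivOfCardEq (card_F4.trans hF.symm))))

end Cfsg.Agent.LieId.L34
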